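import Cfsg.Agent.Foote.Row.BabyModel
import Cfsg.Agent.BM.KHAll

/-!
# Foote's theorem, simple case: the row `B` (helper29)
-/

set_option autoImplicit false

namespace Cfsg.Agent.Foote.Row.Baby

open Subgroup Cfsg Cfsg.Agent.BabyM Cfsg.Agent.BabyM.Model Cfsg.Agent.BabyU.ClosModel
open Cfsg.Agent.BabyU.ClosLane Cfsg.Agent.KFacts

theorem cr (hG : commutator Spor.BabyMonster = ⊤) (ih : IndCR.{0} (Nat.card Spor.BabyMonster)) :
    CR Spor.BabyMonster := by
  have e : Spor.BabyMonster ≃* Inst.M.G := BM.KHAll.iso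
  refine (cr_model (perfect_map e hG) ?_).of_equiv e
  rwa [← Nat.card_congr e.toEquiv]

end Cfsg.Agent.Foote.Row.Baby
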