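import Cfsg.Agent.Foote.Row.MonsterModel
import Cfsg.Agent.MonsterX.InstanceFinal
import Cfsg.Agent.MonsterP.Equiv

/-!
# Foote's theorem, simple case: the row `M` (helper29)
-/

set_option autoImplicit false

namespace Cfsg.Agent.Foote.Row.Monster

open Cfsg.Agent.MonsterX

theorem cr (hp : _root_.commutator Spor.Monster = ⊤) (hC : CR Spor.Co1) : CR Spor.Monster :=
  cr_of Instance.mGroup Instance.mRep Instance.mLat InstanceFinal.mOrbit Instance.mTrans
    (MonsterP.Equiv.equiv.map fun f => f.symm) hp hC

end Cfsg.Agent.Foote.Row.Monster
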